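import Cfsg.Agent.OD.Pre
import Cfsg.Agent.H6.Top2
import Cfsg.Agent.H6.C3A.C
set_option autoImplicit false
set_option maxRecDepth 100000
set_option Elab.async false
set_option linter.all false
namespace CfH6.C3A
open CfH6 MulAction
theorem e0_0 : EqsOk nets0 eqs0 384 9 0 9 :=
  eqsOk_of _ _ _ _ 0 9 _ (by decide) (by decide +kernel)
theorem ok0 : okNets 384 nets0 = true := by decide +kernel
theorem x1_0 : NxOk nets0 ws1 nets1 7 384 9 384 0 9 :=
  nxOk_of _ _ _ _ _ _ _ 0 9 _ (by decide) (by decide +kernel)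
theorem sx1 : sideNx ws1 nets1 8 384 9 384 = true := by decide +kernel
theorem x2_0 : NxOk nets1 ws2 nets2 3 384 9 160 0 9 :=
  nxOk_of _ _ _ _ _ _ _ 0 9 _ (by decide) (by decide +kernel)
theorem sx2 : sideNx ws2 nets2 7 384 9 160 = true := by decide +kernel
theorem x3_0 : NxOk nets2 ws3 nets3 3 160 8 48 0 8 :=
  nxOk_of _ _ _ _ _ _ _ 0 8 _ (by decide) (by decide +kernel)
theorem sx3 : sideNx ws3 nets3 3 160 8 48 = true := by decide +kernel
theorem x4_0 : NxOk nets3 ws4 nets4 2 48 6 40 0 6 :=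
  nxOk_of _ _ _ _ _ _ _ 0 6 _ (by decide) (by decide +kernel)
theorem sx4 : sideNx ws4 nets4 3 48 6 40 = true := by decide +kernel
theorem x5_0 : NxOk nets4 ws5 nets5 2 40 6 32 0 6 :=
  nxOk_of _ _ _ _ _ _ _ 0 6 _ (by decide) (by decide +kernel)
theorem sx5 : sideNx ws5 nets5 2 40 6 32 = true := by decide +kernel
theorem x6_0 : NxOk nets5 ws6 nets6 1 32 5 10 0 5 :=
  nxOk_of _ _ _ _ _ _ _ 0 5 _ (by decide) (by decide +kernel)
theorem sx6 : sideNx ws6 nets6 2 32 5 10 = true := by decide +kernel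
theorem oi1_0 : (Nat.blt 0 7 && Nat.beq (orbN nets1 7 21 (Nat.shiftLeft 1 1)) S1) = true := by decide +kernel
theorem ci1 : (Nat.beq (chkInv nets1 7 S1) 0 && S1.testBit 1) = true := by decide +kernel
theorem cm1 : chkMx 384 nets0 8 ws1 7 276 w1 1 J1 lBig = true := by decide +kernel
theorem og6 : Nat.ble 3 (popc 4 (orbN nets6 1 2 (Nat.shiftLeft 1 6))) = true := by decide +kernel
theorem og5 : Nat.ble 24 (popc 5 (orbN nets5 2 10 (Nat.shiftLeft 1 5))) = true := by decide +kernel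
theorem og4 : Nat.ble 27 (popc 6 (orbN nets4 2 10 (Nat.shiftLeft 1 4))) = true := by decide +kernel
theorem og3 : Nat.ble 30 (popc 6 (orbN nets3 3 15 (Nat.shiftLeft 1 3))) = true := by decide +kernel
theorem og2 : Nat.ble 112 (popc 8 (orbN nets2 3 15 (Nat.shiftLeft 1 2))) = true := by decide +kernel
theorem pw0 : (allLt 8 (wpow [4, 7, 6, 2, 3] (23 ^ 1)) && bs'.all fun b => Nat.blt b 384 && Nat.beq (chkMap nets0 (wpow [4, 7, 6, 2, 3] (23 ^ 1)) b b) 0) = true := by decide +kernel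
end CfH6.C3A
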